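import Cfsg.Agent.Lib.FusionExamples.J4Sub.S60.Upper
import Cfsg.Agent.Lib.FusionExamples.J4Sub.B7392.Upper
import Cfsg.Agent.Lib.FusionExamples.J4Sub.C23.Upper

/-! The presented stabiliser has at most 10200960 elements. -/

set_option autoImplicit false

namespace CfsgLib.FusionExamples.J4Sub.Stab

open CfsgLib.SporRecognition.CosetCert

theorem bound_small : Bound rels ([Gen.g12, Gen.a].map fun a => [(a, true)]) (60 * 1) :=
  Bound.extend bound_nil [Gen.g12, Gen.a] (by decide) 60 (by norm_num) S60.tabU S60.sect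

theorem bound_mid :
    Bound rels ([Gen.g1, Gen.g12, Gen.g15, Gen.g20, Gen.a].map fun a => [(a, true)]) (7392 * (60 * 1)) := by
  refine Bound.extend (WH := B7392.subW) ?_ [Gen.g1, Gen.g12, Gen.g15, Gen.g20, Gen.a] (by decide) 7392
    (by norm_num) B7392.tabU B7392.sect
  have e : wordSubgroup rels B7392.subW = wordSubgroup rels ([Gen.g12, Gen.a].map fun a => [(a, true)]) := by
    simp only [wordSubgroup, B7392.subW, List.map_cons, List.map_nil]
    congr 1
    ext z
    simp [or_comm]
  have h := bound_small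
  rw [Bound, ← e] at h
  exact h

theorem bound_all :
    Bound rels ([Gen.g1, Gen.g5, Gen.g12, Gen.g15, Gen.g20, Gen.g22, Gen.g25, Gen.a].map fun a => [(a, true)])
      (23 * (7392 * (60 * 1))) :=
  Bound.extend bound_mid _ (by decide) 23 (by norm_num) C23.tabU C23.sect

theorem card_le : Finite P7 ∧ Nat.card P7 ≤ 10200960 := by
  obtain ⟨h1, h2⟩ := bound_all.card_le (fun a => by cases a <;> simp)
  exact ⟨h1, h2.trans (by norm_num)⟩

end CfsgLib.FusionExamples.J4Sub.Stab
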