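import Cfsg.Agent.Lib.FusionExamples.J4Sub.Theta
import Cfsg.Agent.Lib.FusionExamples.J4Sub.Bound7
import Cfsg.Agent.Lib.FusionExamples.J4Sub.TopP.Upper

/-! The group presented by the relators among `x` and `y` has at most 244823040 elements. -/

set_option autoImplicit false

namespace CfsgLib.FusionExamples.J4Sub

open CfsgLib.SporRecognition.CosetCert
open Cfsg.Spor.J4 (Gen)

theorem bound_stab : Bound rels TopP.subW 10200960 := by
  obtain ⟨hfin, hle⟩ := Stab.card_le
  haveI := hfin
  haveI hr : Finite theta.range := Finite.of_surjective theta.rangeRestrict theta.rangeRestrict_surjective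
  have hsub : TopP.subW = [Stab.Gen.g1, .g5, .g12, .g15, .g20, .g22, .g25].map stabWord := by decide +kernel
  have hsle : wordSubgroup rels TopP.subW ≤ theta.range := by
    rw [wordSubgroup, Subgroup.closure_le]
    intro z hz
    obtain ⟨w, hw, rfl⟩ := List.mem_map.mp hz
    rw [hsub] at hw
    obtain ⟨a, -, rfl⟩ := List.mem_map.mp hw
    exact ⟨PresentedGroup.of a, theta_of a⟩
  haveI : Finite (wordSubgroup rels TopP.subW) := Finite.Set.subset (theta.range : Set P) hsle
  exact ⟨Nat.card_pos.ne', ((Nat.card_le_card_of_injective _ (Subgroup.inclusion_injective hsle)).trans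
    (Nat.card_le_card_of_surjective _ theta.rangeRestrict_surjective)).trans hle⟩

theorem finite_P : Finite P ∧ Nat.card P ≤ 244823040 := by
  have h : Bound rels ([Gen.x, Gen.y, Gen.t].map fun a => [(a, true)]) (24 * 10200960) :=
    Bound.extend bound_stab [Gen.x, Gen.y, Gen.t] (by decide +kernel) 24 (by norm_num) TopP.tabU TopP.sect
  obtain ⟨h1, h2⟩ := h.card_le (fun a => by cases a <;> simp)
  exact ⟨h1, h2.trans (by norm_num)⟩

end CfsgLib.FusionExamples.J4Sub
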