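import Cfsg.Prelude.Def_Spor_J4

/-!
The seven relators among `x, y` of the presented fourth Janko group together with `t`: the presentation
of the Mathieu group on 24 points.
-/

set_option autoImplicit false

namespace CfsgLib.FusionExamples.J4Sub

open Cfsg.Spor.J4 (Gen)

/-- No Coxeter graph. -/
def edges : List (Gen × ℕ × Gen) := []

/-- The relators among `x`, `y`, and `t`. -/
def extra : List (FreeGroup Gen) := Cfsg.Spor.J4.extra.take 7 ++ [Cfsg.Spor.J4.t]

/-- The relators. -/
abbrev rels : Set (FreeGroup Gen) := Cfsg.Spor.coxRelators edges ∪ {r | r ∈ extra}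

/-- The group presented by `rels`. -/
abbrev P : Type := PresentedGroup rels

end CfsgLib.FusionExamples.J4Sub
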