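import Cfsg.Agent.Lib.FusionExamples.J4Sub.Bound
import Cfsg.Agent.Lib.Golay.Simple
import Cfsg.Agent.Lib.Golay.M24

/-!
A surjection onto M24 identifies the presented group with M24, so a homomorphism of the presented fourth
Janko group that does not kill `x` shows that `⟨x, y⟩` is isomorphic to M24.
-/

set_option autoImplicit false

namespace CfsgLib.FusionExamples.J4Sub

open CfsgLib.SporRecognition.CosetCert
open Cfsg.Spor.J4 (Gen)

/-- A surjection onto M24 is an isomorphism. -/
noncomputable def equivM24 (f : P →* Cfsg.M24) (hf : Function.Surjective f) : P ≃* Cfsg.M24 :=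
  MulEquiv.ofBijective f (by
    obtain ⟨hfin, hle⟩ := finite_P
    haveI := hfin
    refine hf.bijective_of_nat_card_le ?_
    rw [CfsgLib.Golay.natCard_M24]
    exact hle)

/-- The images of the generators in the presented fourth Janko group. -/
def toJ4Img : Gen → Cfsg.Spor.J4
  | .t => 1
  | a => PresentedGroup.of a

theorem toJ4Img_rel : ∀ r ∈ rels, FreeGroup.lift toJ4Img r = 1 := by
  rintro r (hr | hr)
  · exact absurd hr (by simp [Cfsg.Spor.coxRelators, Cfsg.Spor.coxNodes, edges])
  rcases List.mem_append.1 (show r ∈ Cfsg.Spor.J4.extra.take 7 ++ [Cfsg.Spor.J4.t] from hr) with h | h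
  · have h' : r ∈ relL.map FreeGroup.mk := by
      rw [← relL_eq]
      exact h
    obtain ⟨w, hw, rfl⟩ := List.mem_map.1 h'
    have h1 : PresentedGroup.mk (Cfsg.Spor.coxRelators Cfsg.Spor.J4.edges ∪ {r | r ∈ Cfsg.Spor.J4.extra})
        (FreeGroup.mk w) = 1 := PresentedGroup.one_of_mem (Or.inr (List.mem_of_mem_take h))
    have hno : (relL.all noT) = true := by decide +kernel
    rw [← evalW_of_eq_mk] at h1
    show evalW toJ4Img w = 1
    refine Eq.trans ?_ h1
    rw [evalW_eq_prod, evalW_eq_prod]
    refine congrArg List.prod (List.map_congr_left ?_)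
    rintro ⟨a, b⟩ hab
    have hne := of_decide_eq_true (List.all_eq_true.1 (List.all_eq_true.1 hno _ hw) _ hab)
    have : toJ4Img a = PresentedGroup.of a := by cases a <;> first | rfl | exact absurd rfl hne
    rw [this]
  · rw [List.mem_singleton] at h
    subst h
    exact FreeGroup.lift_apply_of

/-- The map to the presented fourth Janko group. -/
def toJ4 : P →* Cfsg.Spor.J4 := PresentedGroup.toGroup (f := toJ4Img) toJ4Img_rel

theorem toJ4_of (a : Gen) : toJ4 (PresentedGroup.of a) = toJ4Img a := PresentedGroup.toGroup.of _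

/-- The subgroup generated by the images of `x` and `y`. -/
abbrev xy : Subgroup Cfsg.Spor.J4 :=
  (Subgroup.closure ({Cfsg.Spor.J4.x, Cfsg.Spor.J4.y} : Set (FreeGroup Gen))).map
    (PresentedGroup.mk (Cfsg.Spor.coxRelators Cfsg.Spor.J4.edges ∪ {r | r ∈ Cfsg.Spor.J4.extra}))

theorem range_toJ4 : toJ4.range = xy := by
  have htop : Subgroup.closure ({PresentedGroup.of Gen.x, PresentedGroup.of Gen.y} : Set P) = ⊤ := by
    rw [eq_top_iff, ← PresentedGroup.closure_range_of rels, Subgroup.closure_le]
    rintro _ ⟨a, rfl⟩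
    cases a
    · exact Subgroup.subset_closure (Or.inl rfl)
    · exact Subgroup.subset_closure (Or.inr rfl)
    · have h1 : (PresentedGroup.of Gen.t : P) = 1 :=
        mk_extra (r := Cfsg.Spor.J4.t) (List.mem_append.2 (Or.inr (List.mem_singleton_self _)))
      rw [h1]
      exact one_mem _
  rw [MonoidHom.range_eq_map, ← htop, MonoidHom.map_closure, xy, MonoidHom.map_closure]
  congr 1
  simp only [Set.image_insert_eq, Set.image_singleton]
  rw [toJ4_of, toJ4_of]
  rfl

theorem toJ4_injective (f : P →* Cfsg.M24) (hf : Function.Surjective f) {M : Type} [Group M]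
    (ψ : Cfsg.Spor.J4 →* M) (hψ : ψ (PresentedGroup.of Gen.x) ≠ 1) : Function.Injective toJ4 := by
  haveI := CfsgLib.Golay.isSimpleGroup_M24
  haveI : IsSimpleGroup P := MulEquiv.isSimpleGroup (equivM24 f hf)
  rcases (inferInstance : toJ4.ker.Normal).eq_bot_or_eq_top with h | h
  · exact (MonoidHom.ker_eq_bot_iff toJ4).1 h
  · exfalso
    have h1 : toJ4 (PresentedGroup.of Gen.x) = 1 := MonoidHom.mem_ker.1 (by rw [h]; exact Subgroup.mem_top _)
    rw [toJ4_of] at h1
    have h2 : (PresentedGroup.of Gen.x : Cfsg.Spor.J4) = 1 := h1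
    exact hψ (by rw [h2, map_one])

theorem exists_equiv_M24 (f : P →* Cfsg.M24) (hf : Function.Surjective f) {M : Type} [Group M]
    (ψ : Cfsg.Spor.J4 →* M) (hψ : ψ (PresentedGroup.of Gen.x) ≠ 1) : Nonempty (xy ≃* Cfsg.M24) :=
  ⟨((MonoidHom.ofInjective (toJ4_injective f hf ψ hψ)).trans (MulEquiv.subgroupCongr range_toJ4)).symm.trans
    (equivM24 f hf)⟩

end CfsgLib.FusionExamples.J4Sub
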