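import Cfsg.Agent.Lib.FusionExamples.J4Sub.A17280.Upper

/-! In the stabiliser presentation, `a` and `g12` satisfy the relations of the icosahedral group. -/

set_option autoImplicit false

namespace CfsgLib.FusionExamples.J4Sub.Stab

open CfsgLib.SporRecognition.CosetCert

/-- A word in `g1` and `g12` equal to `a`. -/
def wA : List Gen := [.g1, .g12, .g12, .g1, .g12, .g12, .g1]

theorem mk_extraL {w : List (Gen × Bool)} (h : w ∈ extraL) : evalW (PresentedGroup.of (rels := rels)) w = 1 := by
  rw [evalW_of_eq_mk]
  exact PresentedGroup.one_of_mem (Or.inr (List.mem_map_of_mem h))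

theorem g12_cube : (PresentedGroup.of Gen.g12 : P7) * PresentedGroup.of Gen.g12 * PresentedGroup.of Gen.g12 = 1 := by
  have h := mk_extraL (w := [(Gen.g12, false), (Gen.g12, false), (Gen.g12, false)]) (by decide)
  simp only [evalW_eq_prod, List.map_cons, List.map_nil, List.prod_cons, List.prod_nil, mul_one, cond_false] at h
  rw [← _root_.mul_inv_rev, ← _root_.mul_inv_rev, inv_eq_one] at h
  exact h

theorem evalW_wA : evalW (PresentedGroup.of (rels := rels)) (wA.map fun g => (g, true)) = PresentedGroup.of Gen.a := by
  have h := mk_extraL (w := [(Gen.g1, true), (Gen.g12, false), (Gen.g1, true), (Gen.g12, false), (Gen.g1, true),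
    (Gen.a, false)]) (by decide)
  have hi : (PresentedGroup.of Gen.g12 : P7)⁻¹ = PresentedGroup.of Gen.g12 * PresentedGroup.of Gen.g12 :=
    inv_eq_of_mul_eq_one_right (by rw [← mul_assoc, g12_cube])
  simp only [evalW_eq_prod, wA, List.map_cons, List.map_nil, List.prod_cons, List.prod_nil, mul_one, cond_false,
    cond_true, hi] at h ⊢
  rw [← mul_inv_eq_one]
  simpa only [mul_assoc] using h

theorem aa_zero : trace ((wA ++ wA).reverse.map A17280.tabU) 0 = 0 := by decide +kernel

/-- Five copies of `a * g12⁻¹`. -/
def w5 : List Gen :=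
  (List.replicate 5 (wA ++ [Gen.g12, Gen.g12])).flatten

theorem w5_zero : trace (w5.reverse.map A17280.tabU) 0 = 0 := by decide +kernel

theorem eq_one_of_zero (w : List Gen) (hw : (w.all fun a => decide (a ∈ [Gen.g1, Gen.g12, Gen.g20])) = true)
    (h0 : trace (w.reverse.map A17280.tabU) 0 = 0) :
    evalW (PresentedGroup.of (rels := rels)) (w.map fun g => (g, true)) = 1 := by
  have h := mem_of_section (by norm_num) A17280.sect w hw h0
  rw [show A17280.subW = [] from rfl, wordSubgroup_nil, Subgroup.mem_bot] at h
  exact h

/-- The two derived relations. -/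
theorem xrel_one : ∀ w ∈ [[(Gen.a, true), (Gen.a, true)],
    [(Gen.a, true), (Gen.g12, true), (Gen.g12, true), (Gen.a, true), (Gen.g12, true), (Gen.g12, true),
      (Gen.a, true), (Gen.g12, true), (Gen.g12, true), (Gen.a, true), (Gen.g12, true), (Gen.g12, true),
      (Gen.a, true), (Gen.g12, true), (Gen.g12, true)]],
    evalW (PresentedGroup.of (rels := rels)) w = 1 := by
  have ha := evalW_wA
  have h2 := eq_one_of_zero (wA ++ wA) (by decide) aa_zero
  have h5 := eq_one_of_zero w5 (by decide) w5_zero
  rw [List.map_append, evalW_append, ha] at h2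
  simp only [w5, List.replicate, List.flatten_cons, List.flatten_nil, List.append_nil, List.map_append,
    evalW_append, ha] at h5
  simp only [evalW_eq_prod, List.map_cons, List.map_nil, List.prod_cons, List.prod_nil, mul_one, cond_true,
    mul_assoc] at h5
  simp only [List.forall_mem_cons, List.not_mem_nil, IsEmpty.forall_iff, implies_true, and_true]
  refine ⟨?_, ?_⟩
  · simpa [evalW_eq_prod] using h2
  · simp only [evalW_eq_prod, List.map_cons, List.map_nil, List.prod_cons, List.prod_nil, mul_one, cond_true]
    exact h5

end CfsgLib.FusionExamples.J4Sub.Stab
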