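import Cfsg.Agent.Lib.FusionExamples.J4Sub.ThetaData
import Cfsg.Agent.Lib.SporRecognition.CosetCert.Upper

/-!
The homomorphism from the presented stabiliser, by normal forms in a free product of groups of order two
and three.
-/

set_option autoImplicit false
set_option maxRecDepth 20000

namespace CfsgLib.FusionExamples.J4Sub

open CfsgLib.SporRecognition.CosetCert
open Cfsg.Spor.J4 (Gen)

/-- Multiply a normal form by a letter on the left. -/
def push : Ltr → List Ltr → List Ltr
  | .x, .x :: t => t
  | .y, .y :: t => .Y :: t
  | .y, .Y :: t => t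
  | .Y, .y :: t => t
  | .Y, .Y :: t => .y :: t
  | a, s => a :: s

/-- The normal form. -/
def nf (w : List Ltr) : List Ltr := w.foldr push []

/-- The letter of a signed generator (`t` does not occur). -/
def toLtr : Gen × Bool → Ltr
  | (.y, true) => .y
  | (.y, false) => .Y
  | _ => .x

/-- No `t`. -/
def noT (w : List (Gen × Bool)) : Bool := w.all fun a => decide (a.1 ≠ Gen.t)

/-- The inverse letter. -/
def invLtr : Ltr → Ltr
  | .x => .x
  | .y => .Y
  | .Y => .y

/-- The inverse word. -/
def invW (w : List (Gen × Bool)) : List (Gen × Bool) := (w.map fun a => (a.1, !a.2)).reverse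

/-- The value of a stabiliser relator as a word in `x` and `y`. -/
def expand (r : List (Stab.Gen × Bool)) : List (Gen × Bool) :=
  (r.map fun a => bif a.2 then stabWord a.1 else invW (stabWord a.1)).flatten

/-- The conjugate claimed by a certificate. -/
def claim : Option (ℕ × Bool × List Ltr) → List Ltr
  | none => []
  | some (i, s, u) => u ++ (bif s then relL.getD i [] else invW (relL.getD i [])).map toLtr ++
      (u.map invLtr).reverse

section Eval

variable {G : Type*} [Group G] (X Y : G)

/-- Evaluation of letters. -/
def evLtr : Ltr → G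
  | .x => X
  | .y => Y
  | .Y => Y⁻¹

/-- Evaluation of lists of letters. -/
def evs (w : List Ltr) : G := (w.map (evLtr X Y)).prod

theorem evs_cons (a : Ltr) (w : List Ltr) : evs X Y (a :: w) = evLtr X Y a * evs X Y w := by
  simp [evs]

theorem evs_append (v w : List Ltr) : evs X Y (v ++ w) = evs X Y v * evs X Y w := by
  simp [evs]

variable {X Y} (hX : X * X = 1) (hY : Y * Y * Y = 1)
include hX hY

theorem evs_push (a : Ltr) (s : List Ltr) : evs X Y (push a s) = evLtr X Y a * evs X Y s := by
  have hyy : Y * Y = Y⁻¹ := eq_inv_of_mul_eq_one_left hY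
  have hii : Y⁻¹ * Y⁻¹ = Y := by rw [← _root_.mul_inv_rev, hyy, inv_inv]
  rcases s with _ | ⟨b, t⟩
  · cases a <;> rfl
  · cases a <;> cases b <;> simp only [push, evs_cons, evLtr] <;>
      first
        | rfl
        | rw [← mul_assoc, hX, one_mul]
        | rw [← mul_assoc, hyy]
        | rw [← mul_assoc, hii]
        | rw [mul_inv_cancel_left]
        | rw [inv_mul_cancel_left]

theorem evs_nf (w : List Ltr) : evs X Y (nf w) = evs X Y w := by
  induction w with
  | nil => rfl
  | cons a w ih =>
    rw [show nf (a :: w) = push a (nf w) from rfl, evs_push hX hY, ih, evs_cons]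

theorem evs_invLtr (u : List Ltr) : evs X Y (u.map invLtr).reverse = (evs X Y u)⁻¹ := by
  induction u with
  | nil => simp [evs]
  | cons a u ih =>
    rw [List.map_cons, List.reverse_cons, evs_append, ih, evs_cons X Y a u, _root_.mul_inv_rev]
    congr 1
    have hi : X⁻¹ = X := inv_eq_of_mul_eq_one_right hX
    cases a <;> simp [evs, evLtr, invLtr, hi]

end Eval

theorem mk_extra {r : FreeGroup Gen} (h : r ∈ extra) : PresentedGroup.mk rels r = 1 :=
  PresentedGroup.one_of_mem (Or.inr h)

theorem relL_eq : extra.take 7 = relL.map FreeGroup.mk := rfl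

theorem evalW_relL {w : List (Gen × Bool)} (h : w ∈ relL) : evalW (PresentedGroup.of (rels := rels)) w = 1 := by
  rw [evalW_of_eq_mk]
  refine mk_extra (List.mem_of_mem_take (i := 7) ?_)
  rw [relL_eq]
  exact List.mem_map_of_mem h

theorem of_x_sq : (PresentedGroup.of Gen.x : P) * PresentedGroup.of Gen.x = 1 := by
  simpa [evalW_eq_prod] using evalW_relL (w := [(Gen.x, true), (Gen.x, true)]) (by decide)

theorem of_y_cube : (PresentedGroup.of Gen.y : P) * PresentedGroup.of Gen.y * PresentedGroup.of Gen.y = 1 := by
  simpa [evalW_eq_prod, mul_assoc] using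
    evalW_relL (w := [(Gen.y, true), (Gen.y, true), (Gen.y, true)]) (by decide)

theorem evalW_eq_evs {w : List (Gen × Bool)} (hw : noT w = true) :
    evalW (PresentedGroup.of (rels := rels)) w =
      evs (PresentedGroup.of Gen.x : P) (PresentedGroup.of Gen.y) (w.map toLtr) := by
  rw [evalW_eq_prod, evs, List.map_map]
  refine congrArg List.prod (List.map_congr_left ?_)
  rintro ⟨a, b⟩ hab
  have hne := of_decide_eq_true (List.all_eq_true.1 hw _ hab)
  have hi : (PresentedGroup.of Gen.x : P)⁻¹ = PresentedGroup.of Gen.x := inv_eq_of_mul_eq_one_right of_x_sq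
  cases a <;> cases b <;> first | exact absurd rfl hne | simp [evLtr, toLtr, hi]

theorem evalW_invW (w : List (Gen × Bool)) :
    evalW (PresentedGroup.of (rels := rels)) (invW w) = (evalW (PresentedGroup.of (rels := rels)) w)⁻¹ := by
  rw [evalW_of_eq_mk, evalW_of_eq_mk, ← map_inv, FreeGroup.inv_mk]
  rfl

/-- The images of the stabiliser generators. -/
noncomputable def thetaImg (a : Stab.Gen) : P := evalW (PresentedGroup.of (rels := rels)) (stabWord a)

theorem evalW_expand (r : List (Stab.Gen × Bool)) :
    evalW (PresentedGroup.of (rels := rels)) (expand r) = evalW thetaImg r := by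
  induction r with
  | nil => simp [expand, evalW_eq_prod]
  | cons a r ih =>
    rw [expand, List.map_cons, List.flatten_cons, evalW_append]
    rw [show ((r.map fun a => bif a.2 then stabWord a.1 else invW (stabWord a.1)).flatten) = expand r from rfl, ih]
    rw [evalW_eq_prod thetaImg (a :: r), List.map_cons, List.prod_cons, ← evalW_eq_prod]
    rcases a with ⟨a, b⟩
    cases b
    · simp only [cond_false, evalW_invW, thetaImg]
    · rfl

/-- The whole certificate. -/
def certOK : Bool :=
  decide (Stab.extraL.length = certL.length) && relL.all noT &&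
  (Stab.extraL.zip certL).all fun p =>
    noT (expand p.1) && decide (nf ((expand p.1).map toLtr) = nf (claim p.2)) &&
    match p.2 with
    | none => true
    | some (i, _, _) => decide (i < relL.length)

theorem certOK_true : certOK = true := by decide +kernel

theorem evs_claim (c : Option (ℕ × Bool × List Ltr))
    (hc : (match c with | none => true | some (i, _, _) => decide (i < relL.length)) = true) :
    evs (PresentedGroup.of Gen.x : P) (PresentedGroup.of Gen.y) (claim c) = 1 := by
  rcases c with _ | ⟨i, s, u⟩
  · rfl
  · have hi : i < relL.length := of_decide_eq_true hc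
    have hm : relL.getD i [] ∈ relL := by
      rw [List.getD_eq_getElem _ _ hi]
      exact List.getElem_mem hi
    have hall := certOK_true
    simp only [certOK, Bool.and_eq_true, List.all_eq_true] at hall
    have ht : noT (relL.getD i []) = true := hall.1.2 _ hm
    have hV : evs (PresentedGroup.of Gen.x : P) (PresentedGroup.of Gen.y)
        ((bif s then relL.getD i [] else invW (relL.getD i [])).map toLtr) = 1 := by
      cases s
      · have ht' : noT (invW (relL.getD i [])) = true := by
          simp only [noT, invW, List.all_reverse, List.all_map] at ht ⊢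
          exact ht
        rw [cond_false, ← evalW_eq_evs ht', evalW_invW, evalW_relL hm, inv_one]
      · rw [cond_true, ← evalW_eq_evs ht, evalW_relL hm]
    rw [claim, evs_append, evs_append, hV, evs_invLtr of_x_sq of_y_cube, mul_one, mul_inv_cancel]

theorem thetaImg_rel (r : FreeGroup Stab.Gen) (hr : r ∈ Stab.rels) : FreeGroup.lift thetaImg r = 1 := by
  rcases hr with hr | hr
  · exact absurd hr (by simp [Cfsg.Spor.coxRelators, Cfsg.Spor.coxNodes, Stab.edges])
  obtain ⟨w, hw, rfl⟩ := List.mem_map.1 (show r ∈ Stab.extraL.map FreeGroup.mk from hr)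
  show evalW thetaImg w = 1
  obtain ⟨k, hk, rfl⟩ := List.mem_iff_getElem.1 hw
  have hall := certOK_true
  simp only [certOK, Bool.and_eq_true, List.all_eq_true, decide_eq_true_eq] at hall
  obtain ⟨⟨hlen, -⟩, hz⟩ := hall
  have hk' : k < certL.length := hlen ▸ hk
  have hk2 : k < (Stab.extraL.zip certL).length := by simp only [List.length_zip]; omega
  have hp : (Stab.extraL[k], certL[k]) ∈ Stab.extraL.zip certL :=
    List.mem_iff_getElem.2 ⟨k, hk2, List.getElem_zip⟩
  obtain ⟨⟨h1, h2⟩, h3⟩ := hz _ hp
  dsimp only at h1 h2 h3
  rw [← evalW_expand]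
  refine (evalW_eq_evs h1).trans ?_
  rw [← evs_nf of_x_sq of_y_cube, h2, evs_nf of_x_sq of_y_cube]
  exact evs_claim _ h3

/-- The homomorphism from the presented stabiliser. -/
noncomputable def theta : Stab.P7 →* P := PresentedGroup.toGroup (f := thetaImg) thetaImg_rel

theorem theta_of (a : Stab.Gen) : theta (PresentedGroup.of a) = thetaImg a := PresentedGroup.toGroup.of _

end CfsgLib.FusionExamples.J4Sub
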